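import Cfsg.Agent.H118.TwoByTwo
import Cfsg.Agent.H636.Gow.CuspSL
import Cfsg.Agent.H665.Psl2Char
import Cfsg.Agent.H61.GowReal
import Cfsg.Agent.H139.Cusp.Bridge
import Cfsg.Agent.H689.Rat
import Cfsg.Agent.ChevalleyStructure.SL2Hom
import Cfsg.Agent.OddOrderCharacters.IndRes

/-!
# S4829, `Row2`, `q` even: the rational character of odd degree of `SL₂(q)` (helper852)

* `exists_pow_conj` : elements of `SL₂(F)` (finite of characteristic two) of the same order are conjugate up to a power;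
* `Eta F η` : irreducible, nontrivial, of odd degree, rational valued, the value depends on the order only;
* **`exists_eta`**.
-/

set_option autoImplicit false
set_option linter.unusedSectionVars false

open scoped ComplexConjugate
open Cfsg Matrix Cfsg.Agent.Characters Cfsg.Agent.Characters.Core

namespace Cfsg.Agent.H852.R2

open Cfsg.Agent.ChevalleyStructure.SL2Hom (up)
open Cfsg.Agent.H118.TwoByTwo (isConj_of_trace_det)
open Cfsg.Agent.H665.Psl2Char (borel mem_borel diag upp sl_inv_entries)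
open Cfsg.Agent.ClassicalGeometry.SL2Line (sl_mul_apply)

universe u

local notation "SL2 " F => Matrix.SpecialLinearGroup (Fin 2) F

section order

variable {F : Type u} [Field F]

theorem det_eq (g : SL2 F) : g.1 0 0 * g.1 1 1 - g.1 0 1 * g.1 1 0 = 1 := by
  rw [← Matrix.det_fin_two]
  exact g.2

theorem sq_eq (g : SL2 F) : (g.1 * g.1 : Matrix (Fin 2) (Fin 2) F) = g.1.trace • g.1 - 1 := by
  have h := det_eq g
  ext i j
  fin_cases i <;> fin_cases j <;>
    simp [Matrix.mul_apply, Fin.sum_univ_two, Matrix.trace_fin_two]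
  · linear_combination -h
  · ring
  · ring
  · linear_combination -h

theorem nonscalar [CharP F 2] {g : SL2 F} (hg : g ≠ 1) :
    ∀ a : F, (g : Matrix (Fin 2) (Fin 2) F) ≠ a • (1 : Matrix (Fin 2) (Fin 2) F) := by
  intro a ha
  have h1 : (g : Matrix (Fin 2) (Fin 2) F).det = 1 := g.2
  rw [ha, Matrix.det_smul, Matrix.det_one, mul_one, Fintype.card_fin] at h1
  have h2 : (a - 1) ^ 2 = 0 := by
    rw [sub_pow_char, h1, one_pow, sub_self]
  have h3 : a = 1 := sub_eq_zero.1 (pow_eq_zero_iff two_ne_zero |>.1 h2)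
  apply hg
  apply Subtype.ext
  rw [ha, h3, one_smul]
  rfl

/-- in characteristic two, elements of `SL₂(F)` conjugate in `GL₂(F)` are conjugate -/
theorem isConj_of_gl [Finite F] [CharP F 2] {g h : SL2 F} (hgh : IsConj (g : GL (Fin 2) F) (h : GL (Fin 2) F)) :
    IsConj g h := by
  obtain ⟨c, hc⟩ := isConj_iff.1 hgh
  have hsq : ∃ s : F, s ^ 2 = (c : Matrix (Fin 2) (Fin 2) F).det := by
    have := (bijective_frobenius (R := F) 2).2 (c : Matrix (Fin 2) (Fin 2) F).det
    obtain ⟨s, hs⟩ := this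
    exact ⟨s, by rw [← hs, frobenius_def]⟩
  obtain ⟨s, hs⟩ := hsq
  have hc0 : (c : Matrix (Fin 2) (Fin 2) F).det ≠ 0 := by
    have := c.det.ne_zero
    simpa using this
  have hs0 : s ≠ 0 := by
    rintro rfl
    apply hc0
    rw [← hs]
    simp
  let d : SL2 F := ⟨s⁻¹ • (c : Matrix (Fin 2) (Fin 2) F), by
    rw [Matrix.det_smul, Fintype.card_fin, ← hs, ← mul_pow, inv_mul_cancel₀ hs0, one_pow]⟩
  rw [isConj_iff]
  refine ⟨d, ?_⟩
  rw [mul_inv_eq_iff_eq_mul]
  apply Subtype.ext
  have hc' : c * (g : GL (Fin 2) F) = (h : GL (Fin 2) F) * c := by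
    rw [← hc]; group
  have hc'' : (c : Matrix (Fin 2) (Fin 2) F) * (g : Matrix (Fin 2) (Fin 2) F) =
      (h : Matrix (Fin 2) (Fin 2) F) * (c : Matrix (Fin 2) (Fin 2) F) := by
    have := congrArg (fun u : GL (Fin 2) F => (u : Matrix (Fin 2) (Fin 2) F)) hc'
    exact this
  change (s⁻¹ • (c : Matrix (Fin 2) (Fin 2) F)) * (g : Matrix (Fin 2) (Fin 2) F) =
    (h : Matrix (Fin 2) (Fin 2) F) * (s⁻¹ • (c : Matrix (Fin 2) (Fin 2) F))
  rw [Matrix.smul_mul, Matrix.mul_smul, hc'']

theorem isConj_of_trace [Finite F] [CharP F 2] {g h : SL2 F} (hg : g ≠ 1) (hh : h ≠ 1)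
    (ht : g.1.trace = h.1.trace) : IsConj g h := by
  apply isConj_of_gl
  apply isConj_of_trace_det
  · exact nonscalar hg
  · exact nonscalar hh
  · exact ht
  · exact g.2.trans h.2.symm

/-- **all elements are real** -/
theorem isConj_inv [Finite F] [CharP F 2] (g : SL2 F) : IsConj g g⁻¹ := by
  by_cases hg : g = 1
  · rw [hg, inv_one]
  · refine isConj_of_trace hg (inv_ne_one.2 hg) ?_
    obtain ⟨h1, -, -, h2⟩ := sl_inv_entries F g
    rw [Matrix.trace_fin_two, Matrix.trace_fin_two]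
    show g.1 0 0 + g.1 1 1 = g⁻¹ 0 0 + g⁻¹ 1 1
    rw [h1, h2]
    exact add_comm _ _

theorem pow_eq {K : Type u} [Field K] [Algebra F K] (g : SL2 F) {z w : K} (hz : z * z = algebraMap F K g.1.trace * z - 1)
    (hw : w * w = algebraMap F K g.1.trace * w - 1) (m : ℕ) :
    ∃ a b : F, (g ^ m).1 = a • g.1 + b • (1 : Matrix (Fin 2) (Fin 2) F) ∧
      algebraMap F K a * z + algebraMap F K b = z ^ m ∧ algebraMap F K a * w + algebraMap F K b = w ^ m := by
  induction m with
  | zero =>
    refine ⟨0, 1, ?_, ?_, ?_⟩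
    · rw [pow_zero, zero_smul, one_smul, zero_add]
      rfl
    · rw [map_zero, map_one, zero_mul, zero_add, pow_zero]
    · rw [map_zero, map_one, zero_mul, zero_add, pow_zero]
  | succ m ih =>
    obtain ⟨a, b, h1, h2, h3⟩ := ih
    refine ⟨a * g.1.trace + b, -a, ?_, ?_, ?_⟩
    · rw [pow_succ]
      show (g ^ m).1 * g.1 = _
      rw [h1, add_mul, smul_mul_assoc, sq_eq, smul_mul_assoc, one_mul, smul_sub, smul_smul, add_smul, neg_smul]
      abel
    · rw [pow_succ, ← h2, map_add, map_mul, map_neg]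
      linear_combination (-(algebraMap F K a)) * hz
    · rw [pow_succ, ← h3, map_add, map_mul, map_neg]
      linear_combination (-(algebraMap F K a)) * hw

/-- the trace of an involution is zero -/
theorem trace_zero_iff [CharP F 2] {g : SL2 F} : g.1.trace = 0 ↔ g ^ 2 = 1 := by
  have h2 : (1 : Matrix (Fin 2) (Fin 2) F) = -1 := by
    ext i j
    rw [Matrix.neg_apply, CharTwo.neg_eq]
  constructor
  · intro h
    apply Subtype.ext
    rw [pow_two]
    show g.1 * g.1 = 1
    rw [sq_eq, h, zero_smul, zero_sub, ← h2]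
  · intro h
    have h1 : g.1 * g.1 = 1 := by
      have := congrArg Subtype.val h
      rw [pow_two] at this
      exact this
    rw [sq_eq, sub_eq_iff_eq_add] at h1
    nth_rewrite 1 [h2] at h1
    rw [neg_add_cancel] at h1
    by_contra hne
    have h3 : g.1 = 0 := (smul_eq_zero.1 h1).resolve_left hne
    have h4 : g.1.det = 1 := g.2
    rw [h3, Matrix.det_zero] at h4
    exact zero_ne_one h4

/-- the eigenvalue -/
theorem exists_eigen [CharP F 2] {g : SL2 F} (ht : g.1.trace ≠ 0) :
    ∃ z : AlgebraicClosure F, orderOf z = orderOf g ∧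
      ∀ m : ℕ, algebraMap F (AlgebraicClosure F) (g ^ m).1.trace = z ^ m + z⁻¹ ^ m := by
  have h2 : CharP (AlgebraicClosure F) 2 := charP_of_injective_algebraMap (algebraMap F (AlgebraicClosure F)).injective 2
  obtain ⟨z, hz⟩ : ∃ z : AlgebraicClosure F, z * z = algebraMap F _ g.1.trace * z - 1 := by
    obtain ⟨z, hz⟩ := IsAlgClosed.exists_eval₂_eq_zero (RingHom.id (AlgebraicClosure F))
      (Polynomial.X ^ 2 - Polynomial.C (algebraMap F _ g.1.trace) * Polynomial.X + 1) (by
        have : (Polynomial.X ^ 2 - Polynomial.C (algebraMap F (AlgebraicClosure F) g.1.trace) * Polynomial.X + 1).degree = 2 := by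
          compute_degree!
        rw [this]
        norm_num)
    refine ⟨z, ?_⟩
    simp at hz
    linear_combination hz
  have hz0 : z ≠ 0 := by
    rintro rfl
    simp at hz
  have ht' : algebraMap F (AlgebraicClosure F) g.1.trace = z + z⁻¹ := by
    field_simp
    linear_combination -hz
  have hw : z⁻¹ * z⁻¹ = algebraMap F _ g.1.trace * z⁻¹ - 1 := by
    rw [ht', add_mul, mul_inv_cancel₀ hz0]
    ring
  have hne : z - z⁻¹ ≠ 0 := by
    intro h
    apply ht
    apply (algebraMap F (AlgebraicClosure F)).injective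
    rw [ht', map_zero, ← CharTwo.sub_eq_add, h]
  refine ⟨z, ?_, fun m => ?_⟩
  · apply orderOf_eq_orderOf_iff.2
    intro m
    obtain ⟨a, b, h3, h4, h5⟩ := pow_eq g hz hw m
    constructor
    · intro h
      rw [h] at h4
      rw [inv_pow, h, inv_one] at h5
      have h6 : algebraMap F (AlgebraicClosure F) a = 0 := by
        have h7 : algebraMap F (AlgebraicClosure F) a * (z - z⁻¹) = 0 := by
          linear_combination h4 - h5
        exact (mul_eq_zero.1 h7).resolve_right hne
      rw [h6, zero_mul, zero_add] at h4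
      have h8 : a = 0 := (map_eq_zero _).1 h6
      have h9 : b = 1 := (algebraMap F (AlgebraicClosure F)).injective (by rw [h4, map_one])
      apply Subtype.ext
      rw [h3, h8, h9, zero_smul, one_smul, zero_add]
      rfl
    · intro h
      by_contra hcon
      have h6 : (g ^ m).1.trace = a * g.1.trace + b * 2 := by
        rw [h3, Matrix.trace_add, Matrix.trace_smul, Matrix.trace_smul, Matrix.trace_one, Fintype.card_fin]
        simp
      have h7 : (g ^ m).1.trace = 0 := by
        rw [h, trace_zero_iff, one_pow]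
      have h8 : z ^ m + z⁻¹ ^ m = 0 := by
        have h9 : algebraMap F (AlgebraicClosure F) (g ^ m).1.trace = z ^ m + z⁻¹ ^ m := by
          rw [h6, map_add, map_mul, map_mul, ht', ← h4, ← h5, map_ofNat]
          ring
        rw [← h9, h7, map_zero]
      rw [← CharTwo.sub_eq_add, inv_pow] at h8
      have hzm : z ^ m ≠ 0 := pow_ne_zero _ hz0
      have h10 : (z ^ m - 1) ^ 2 = 0 := by
        rw [CharTwo.sub_eq_add, CharTwo.add_sq, one_pow]
        have h11 := congrArg (fun t => t * z ^ m) h8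
        simp only [sub_mul, zero_mul, inv_mul_cancel₀ hzm] at h11
        rw [← CharTwo.sub_eq_add, pow_two]
        exact h11
      exact hcon (sub_eq_zero.1 (pow_eq_zero_iff two_ne_zero |>.1 h10))
  · obtain ⟨a, b, h3, h4, h5⟩ := pow_eq g hz hw m
    have h6 : (g ^ m).1.trace = a * g.1.trace + b * 2 := by
      rw [h3, Matrix.trace_add, Matrix.trace_smul, Matrix.trace_smul, Matrix.trace_one, Fintype.card_fin]
      simp
    rw [h6, map_add, map_mul, map_mul, ht', ← h4, ← h5, map_ofNat]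
    ring

/-- **elements of the same order** -/
theorem exists_pow_conj [Finite F] [CharP F 2] {g h : SL2 F} (hgh : orderOf g = orderOf h) :
    ∃ k : ℕ, k.Coprime (orderOf g) ∧ IsConj (g ^ k) h := by
  by_cases hg : g = 1
  · have hh : h = 1 := by
      rw [hg, orderOf_one] at hgh
      exact orderOf_eq_one_iff.1 hgh.symm
    exact ⟨1, Nat.coprime_one_left _, by rw [hg, hh, one_pow]⟩
  have hh : h ≠ 1 := by
    rintro rfl
    rw [orderOf_one] at hgh
    exact hg (orderOf_eq_one_iff.1 hgh)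
  have hiff : g.1.trace = 0 ↔ h.1.trace = 0 := by
    rw [trace_zero_iff, trace_zero_iff, ← orderOf_dvd_iff_pow_eq_one, ← orderOf_dvd_iff_pow_eq_one, hgh]
  by_cases ht : g.1.trace = 0
  · refine ⟨1, Nat.coprime_one_left _, ?_⟩
    rw [pow_one]
    exact isConj_of_trace hg hh (by rw [ht, hiff.1 ht])
  · have ht' : h.1.trace ≠ 0 := fun h => ht (hiff.2 h)
    obtain ⟨z, hz, hz'⟩ := exists_eigen ht
    obtain ⟨w, hw, hw'⟩ := exists_eigen ht'
    have hnz : NeZero (orderOf g) := ⟨(orderOf_pos g).ne'⟩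
    have p1 : IsPrimitiveRoot z (orderOf g) := by
      rw [← hz]
      exact IsPrimitiveRoot.orderOf z
    have p2 : IsPrimitiveRoot w (orderOf g) := by
      rw [hgh, ← hw]
      exact IsPrimitiveRoot.orderOf w
    obtain ⟨k, -, hk, hkz⟩ := p1.isPrimitiveRoot_iff.1 p2
    refine ⟨k, hk, ?_⟩
    have hgk : g ^ k ≠ 1 := by
      intro h1
      have h2 := orderOf_dvd_of_pow_eq_one h1
      have h3 := Nat.eq_one_of_dvd_coprimes hk h2 dvd_rfl
      exact hg (orderOf_eq_one_iff.1 h3)
    refine isConj_of_trace hgk hh ?_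
    apply (algebraMap F (AlgebraicClosure F)).injective
    have h1 := hw' 1
    rw [pow_one, pow_one, pow_one] at h1
    rw [hz', h1, inv_pow, hkz]

end order

/-! ### the character -/

section char

variable {F : Type u} [Field F]

/-- the rational character of odd degree of `SL₂(F)` -/
structure Eta (F : Type u) [Field F] (η : (SL2 F) → ℂ) : Prop where
  irr : IsIrrCharacter (SL2 F) η
  ne : η ≠ 1
  odd : ∃ d : ℕ, Odd d ∧ η 1 = d
  rat : ∀ g, ∃ q : ℚ, η g = q
  ord : ∀ g h : SL2 F, orderOf g = orderOf h → η g = η h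

/-- a rational valued character is invariant under the powers prime to the order -/
theorem rat_pow' {G : Type*} [Group G] [Finite G] {V : G → ℂ} (hV : IsCharacter G V) (hr : ∀ g, ∃ q : ℚ, V g = q) {g : G}
    {m : ℕ} (hm : m.Coprime (orderOf g)) : V (g ^ m) = V g := by
  obtain ⟨m', h1, h2⟩ := Cfsg.Agent.H689.exists_coprime_lift (m := m) (a := orderOf g) (N := Nat.card G)
    Nat.card_pos.ne' (orderOf_dvd_natCard g) hm
  have h3 := (GaloisBasic.exists_rat_iff hV g).1 (hr g) m' h1
  rw [pow_eq_pow_iff_modEq.2 h2] at h3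
  exact h3

theorem ord_of_rat [Finite F] [CharP F 2] {η : (SL2 F) → ℂ} (hη : IsIrrCharacter (SL2 F) η)
    (hr : ∀ g, ∃ q : ℚ, η g = q) (g h : SL2 F) (hgh : orderOf g = orderOf h) : η g = η h := by
  obtain ⟨k, hk, hc⟩ := exists_pow_conj hgh
  obtain ⟨c, hc⟩ := isConj_iff.1 hc
  rw [← hc, isIrr_isClassFunction hη, rat_pow' (isIrr_isCharacter hη) hr hk]

/-- the principal series -/
theorem prin_irr [Fintype (SL2 F)] (l : Fˣ →* ℂˣ) (d : Fˣ) (hl : l (d ^ 2) ≠ 1) :
    IsIrrCharacter (SL2 F) (indFun (borel F) (fun t => ((l.comp diag) t : ℂ))) := by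
  classical
  have : Fintype (borel F) := Fintype.ofFinite _
  apply Cfsg.Agent.CharactersDeep.MackeyLinear.isIrrCharacter_indFun
  intro x hx
  have hc : x 1 0 ≠ 0 := hx
  set y : F := (((d⁻¹ : Fˣ) : F) - (d : F)) * x 0 0 / x 1 0 with hy
  set t : (SL2 F) := (upp d y : SL2 F) with ht
  have htB : t ∈ borel F := (upp d y).2
  have hdet : x 0 0 * x 1 1 - x 0 1 * x 1 0 = 1 := by
    have := x.det_coe
    rwa [Matrix.det_fin_two] at this
  obtain ⟨i00, i01, i10, i11⟩ := sl_inv_entries F x
  have t00 : t 0 0 = (d : F) := rfl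
  have t01 : t 0 1 = y := rfl
  have t10 : t 1 0 = 0 := rfl
  have t11 : t 1 1 = ((d⁻¹ : Fˣ) : F) := rfl
  have hyc : y * x 1 0 = (((d⁻¹ : Fˣ) : F) - (d : F)) * x 0 0 := by
    rw [hy]; field_simp
  have hconj00 : (x⁻¹ * t * x) 0 0 = ((d⁻¹ : Fˣ) : F) := by
    rw [sl_mul_apply, sl_mul_apply, sl_mul_apply, i00, i01, t00, t01, t10, t11]
    linear_combination x 1 1 * hyc + ((d⁻¹ : Fˣ) : F) * hdet
  have hconj10 : (x⁻¹ * t * x) 1 0 = 0 := by
    rw [sl_mul_apply, sl_mul_apply, sl_mul_apply, i10, i11, t00, t01, t10, t11]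
    linear_combination (- x 1 0) * hyc
  refine ⟨⟨t, htB⟩, mem_borel.2 hconj10, ?_⟩
  intro heq
  have h1 : diag (⟨t, htB⟩ : borel F) = d := Units.ext rfl
  have h2 : diag (⟨x⁻¹ * t * x, mem_borel.2 hconj10⟩ : borel F) = d⁻¹ := Units.ext hconj00
  rw [MonoidHom.comp_apply, MonoidHom.comp_apply, h1, h2, map_inv] at heq
  apply hl
  rw [pow_two, map_mul]
  nth_rewrite 1 [heq]
  exact inv_mul_cancel _

/-- all characters are real valued -/
theorem real [Finite F] [CharP F 2] {η : (SL2 F) → ℂ} (hη : IsIrrCharacter (SL2 F) η) (g : SL2 F) :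
    conj (η g) = η g := by
  obtain ⟨c, hc⟩ := isConj_iff.1 (isConj_inv g)
  rw [← isCharacter_apply_inv (isIrr_isCharacter hη), ← hc, isIrr_isClassFunction hη]

theorem eta_prin [Finite F] [CharP F 2] [Fintype (SL2 F)] {l : Fˣ →* ℂˣ} (h3 : l ^ 3 = 1) (h1 : l ≠ 1) :
    Eta F (indFun (borel F) (fun t => ((l.comp diag) t : ℂ))) := by
  have := Fintype.ofFinite F
  have := Fintype.ofFinite (borel F)
  have hcube : ∀ x : Fˣ, l x ^ 3 = 1 := fun x => by
    rw [← MonoidHom.pow_apply, h3, MonoidHom.one_apply]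
  obtain ⟨d, hd⟩ : ∃ d : Fˣ, l d ≠ 1 := by
    by_contra hcon
    push Not at hcon
    exact h1 (MonoidHom.ext hcon)
  have hd2 : l (d ^ 2) ≠ 1 := by
    intro h
    apply hd
    rw [map_pow] at h
    have := hcube d
    rwa [pow_succ, h, one_mul] at this
  have hirr := prin_irr l d hd2
  have hone : indFun (borel F) (fun t => ((l.comp diag) t : ℂ)) 1 = ((Fintype.card F + 1 : ℕ) : ℂ) := by
    rw [OddOrderCharacters.IndRes.indFun_apply_one, H665.Psl2Char.index_borel, map_one]
    simp
  have hodd : Odd (Fintype.card F + 1) := by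
    have h2 : Even (Fintype.card F) := by
      rw [Nat.even_iff]
      exact FiniteField.even_card_of_char_two (ringChar.eq F 2)
    exact h2.add_one
  have hrat : ∀ g, ∃ q : ℚ, indFun (borel F) (fun t => ((l.comp diag) t : ℂ)) g = q := by
    intro g
    apply GaloisBasic.exists_rat_of_forall_ringEquiv
    · exact (GaloisBasic.isIntegral_apply (isIrr_isCharacter hirr) g).tower_top
    intro τ
    have key : ∀ f : ℂ →+* ℂ, (∀ z : ℂ, z ^ 3 = 1 → τ z = f z) →
        τ (indFun (borel F) (fun t => ((l.comp diag) t : ℂ)) g) = f (indFun (borel F) (fun t => ((l.comp diag) t : ℂ)) g) := by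
      intro f hf
      rw [indFun, map_mul, map_mul, map_inv₀, map_inv₀, map_natCast, map_natCast, map_sum, map_sum]
      congr 1
      refine Finset.sum_congr rfl fun x _ => ?_
      by_cases h : x⁻¹ * g * x ∈ borel F
      · have h1 : extendByZero (borel F) (fun t => ((l.comp diag) t : ℂ)) (x⁻¹ * g * x) =
            ((l.comp diag) ⟨_, h⟩ : ℂ) := Subtype.val_injective.extend_apply _ _ (⟨_, h⟩ : borel F)
        rw [h1]
        apply hf
        rw [MonoidHom.comp_apply, ← Units.val_pow_eq_pow_val, hcube, Units.val_one]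
      · have h1 : extendByZero (borel F) (fun t => ((l.comp diag) t : ℂ)) (x⁻¹ * g * x) = 0 := by
          apply Function.extend_apply'
          rintro ⟨b, hb⟩
          exact h (hb ▸ b.2)
        rw [h1, map_zero, map_zero]
    rcases H61.GowReal.cube_cases τ with h | h
    · exact key (RingHom.id ℂ) h
    · rw [key (starRingEnd ℂ) h]
      exact real hirr g
  refine ⟨hirr, ?_, ⟨_, hodd, hone⟩, hrat, ord_of_rat hirr hrat⟩
  intro h
  rw [h, Pi.one_apply] at hone
  have h2 : (1 : ℕ) = Fintype.card F + 1 := by exact_mod_cast hone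
  have h3 : 0 < Fintype.card F := Fintype.card_pos
  omega

theorem up_zero' : (up 0 : SL2 F) = 1 := by
  apply Subtype.ext
  show (!![1, 0; 0, 1] : Matrix (Fin 2) (Fin 2) F) = 1
  rw [Matrix.one_fin_two]

theorem up_mul' (a b : F) : (up a * up b : SL2 F) = up (a + b) := by
  apply Subtype.ext
  show (!![1, a; 0, 1] : Matrix (Fin 2) (Fin 2) F) * !![1, b; 0, 1] = !![1, a + b; 0, 1]
  rw [Matrix.mul_fin_two]
  simp [add_comm]

/-- the root group as a homomorphism -/
def upHom (F : Type u) [Field F] : Multiplicative F →* SL2 F where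
  toFun a := up (Multiplicative.toAdd a)
  map_one' := up_zero'
  map_mul' _ _ := (up_mul' _ _).symm

theorem eta_cusp [Fintype F] [CharP F 2] (h3 : ¬ 3 ∣ Nat.card F - 1) :
    ∃ η : (SL2 F) → ℂ, Eta F η ∧ ∀ g : SL2 F, ∑ a : F, η (up a * g) = 0 := by
  classical
  obtain ⟨χ, hχ⟩ := H636.Gow.CuspSL.exists_cuspTwo F h3
  have hirr := hχ.irr
  have h0 : ∑ a : F, χ (up a) = 0 := by
    have h1 : ∀ a : F, a ≠ 0 → χ (up a) = -1 := by
      intro a ha
      refine hχ.unip _ (fun h => ha ?_) ?_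
      · have := congrFun (congrFun (congrArg Subtype.val h) 0) 1
        simpa [up] using this
      · show ((!![1, a; 0, 1] : Matrix (Fin 2) (Fin 2) F) - 1) ^ 2 = 0
        rw [Matrix.one_fin_two, pow_two]
        ext i j
        fin_cases i <;> fin_cases j <;> simp [Matrix.mul_apply, Fin.sum_univ_two]
    rw [← Finset.add_sum_erase _ _ (Finset.mem_univ (0 : F)), Finset.sum_congr rfl
      fun a ha => h1 a (Finset.ne_of_mem_erase ha), up_zero', hχ.one, Finset.sum_const,
      Finset.card_erase_of_mem (Finset.mem_univ _), Finset.card_univ, Nat.card_eq_fintype_card, nsmul_eq_mul,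
      Nat.cast_sub Fintype.card_pos]
    push_cast
    ring
  have hsum : ∀ g : SL2 F, ∑ a : F, χ (up a * g) = 0 := by
    intro g
    have h1 := H636.Gow.CuspSL.sum_mul_eq_zero (A := Multiplicative F) (isIrr_isCharacter hirr) (upHom F) (by
      rw [← h0]
      exact (Fintype.sum_equiv Multiplicative.ofAdd _ _ fun a => rfl).symm) g
    rw [← h1]
    refine Fintype.sum_equiv Multiplicative.ofAdd _ _ fun a => ?_
    show χ (up a * g) = χ (g * up a)
    have h2 := isIrr_isClassFunction hirr (g * up a) g⁻¹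
    rw [← h2]
    congr 1
    group
  have hodd : Even (Fintype.card F) := by
    rw [Nat.even_iff]
    exact FiniteField.even_card_of_char_two (ringChar.eq F 2)
  refine ⟨χ, ⟨hirr, ?_, ⟨Fintype.card F - 1, ?_, ?_⟩, hχ.rat, ord_of_rat hirr hχ.rat⟩, hsum⟩
  · intro h
    rw [h] at h0
    simp only [Pi.one_apply, Finset.sum_const, Finset.card_univ, nsmul_eq_mul, mul_one] at h0
    exact Fintype.card_ne_zero (by exact_mod_cast h0)
  · exact Nat.Even.sub_odd Fintype.card_pos hodd odd_one
  · rw [hχ.one, Nat.card_eq_fintype_card, Nat.cast_sub Fintype.card_pos, Nat.cast_one]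

theorem exists_mu' (F : Type u) [Field F] [Fintype F] (h : 3 ∣ Nat.card F - 1) :
    ∃ μ : Fˣ →* ℂˣ, μ ^ 3 = 1 ∧ μ ≠ 1 := by
  obtain ⟨θ, hθ⟩ := H139.Cusp.exists_theta F
  obtain ⟨a, ha⟩ := h
  have hq : 1 < Nat.card F := Finite.one_lt_card
  have hcard : Nat.card Fˣ = 3 * a := by
    rw [Nat.card_units, ha]
  let μ₀ : Fˣ →* ℂˣ := Units.map (θ : F →* ℂ)
  have hμ₀ : Function.Injective μ₀ := fun x y h => Units.ext (hθ (congrArg Units.val h))
  refine ⟨μ₀ ^ a, ?_, ?_⟩
  · ext1 x
    rw [MonoidHom.pow_apply, MonoidHom.pow_apply, ← pow_mul, mul_comm a 3, ← hcard, ← map_pow, pow_card_eq_one',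
      map_one]
    rfl
  · intro h
    obtain ⟨γ, hγ⟩ := IsCyclic.exists_ofOrder_eq_natCard (α := Fˣ)
    have h1 := DFunLike.congr_fun h γ
    rw [MonoidHom.pow_apply, ← map_pow] at h1
    have h2 : γ ^ a = 1 := hμ₀ (by rw [h1, map_one]; rfl)
    have h3 := orderOf_dvd_of_pow_eq_one h2
    rw [hγ, hcard] at h3
    have h4 := Nat.le_of_dvd (by omega) h3
    omega

/-- **The character.** -/
theorem exists_eta (F : Type u) [Field F] [Fintype F] [CharP F 2] [Fintype (SL2 F)] :
    ∃ η : (SL2 F) → ℂ, Eta F η ∧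
      ((∃ l : Fˣ →* ℂˣ, l ^ 3 = 1 ∧ l ≠ 1 ∧ η = indFun (borel F) (fun t => ((l.comp diag) t : ℂ))) ∨
        ∀ g : SL2 F, ∑ a : F, η (up a * g) = 0) := by
  by_cases h3 : 3 ∣ Nat.card F - 1
  · obtain ⟨l, hl, hl1⟩ := exists_mu' F h3
    exact ⟨_, eta_prin hl hl1, Or.inl ⟨l, hl, hl1, rfl⟩⟩
  · obtain ⟨η, h1, h2⟩ := eta_cusp h3
    exact ⟨η, h1, Or.inr h2⟩

end char

end Cfsg.Agent.H852.R2
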